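import Cfsg.Agent.Base
import Cfsg.Agent.H60.WrPhi

/-! Tensor-induced subgroups (class C7), job BQL: property (Q) gives (QL) for bilinear factors. -/

set_option autoImplicit false

namespace H49.BQL
open H60.Wr Cfsg Cfsg.Geo Matrix H19 Module
open scoped MatrixGroups

universe u

variable {F : Type u} [Field F] {k t : ℕ} {i : Fin t} {B : Frm (Fin k) F}
  {M : Subgroup (GG k t F)} {x y u w φ : Fin k → F} {m : GG k t F}

/-! ### Linear algebra in one factor -/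

theorem finrank_span_le (s : Finset (Fin k → F)) :
    finrank F (Submodule.span F (s : Set (Fin k → F))) ≤ s.card := finrank_span_finset_le_card s

theorem exists_perp (B : Frm (Fin k) F) (s : Finset (Fin k → F)) (h : s.card < k) :
    ∃ v, v ≠ 0 ∧ ∀ a ∈ s, B.f v a = 0 := by
  have h1 := B.card_le_finrank_add_perp (Submodule.span F (s : Set (Fin k → F)))
  have h2 := finrank_span_le s
  rw [Fintype.card_fin] at h1
  have h3 : B.perp (Submodule.span F (s : Set (Fin k → F))) ≠ ⊥ := fun e => by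
    rw [e, finrank_bot] at h1; omega
  obtain ⟨v, hv, v0⟩ := Submodule.exists_mem_ne_zero_of_ne_bot h3
  exact ⟨v, v0, fun a ha => hv a (Submodule.subset_span ha)⟩

theorem exists_nonsing (hσ : ∀ a, B.σ a = a) (he : B.ε = 1) (h2 : (2 : F) ≠ 0)
    (J R : Submodule F (Fin k → F)) (hR : J ⊓ B.perp J ≤ R) (h : finrank F J + finrank F R < k) :
    ∃ z, B.f z z ≠ 0 ∧ ∀ a ∈ J, B.f z a = 0 := by
  by_contra! h0
  have h1 : ∀ z ∈ B.perp J, B.f z z = 0 := fun z hz => by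
    by_contra e
    obtain ⟨a, ha, h3⟩ := h0 z e
    exact h3 (hz a ha)
  have h3 : B.perp J ≤ R := fun z hz => hR ⟨by
    by_contra hJ
    obtain ⟨v, e1, e2⟩ := exists_f_of_notMem (B := B) hJ
    have hv : v ∈ B.perp J := fun a ha => B.eq_zero_comm.1 (e2 a ha)
    have h4 := h1 _ (add_mem hz hv)
    rw [B.add_left, B.add_right, B.add_right, h1 z hz, h1 v hv, B.symm z v, he, hσ, e1] at h4
    exact h2 (by linear_combination h4), hz⟩
  have h4 := B.card_le_finrank_add_perp J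
  have h5 := Submodule.finrank_mono h3
  rw [Fintype.card_fin] at h4
  omega

theorem nonsing_two (hσ : ∀ a, B.σ a = a) (he : B.ε = 1) (h2 : (2 : F) ≠ 0) (hk : 5 ≤ k)
    (u w : Fin k → F) : ∃ z, B.f z z ≠ 0 ∧ B.f z u = 0 ∧ B.f z w = 0 := by
  classical
  have h1 := finrank_span_le (F := F) ({u, w} : Finset (Fin k → F))
  have h3 : ({u, w} : Finset (Fin k → F)).card ≤ 2 := Finset.card_le_two
  obtain ⟨z, hz, h⟩ := exists_nonsing hσ he h2 _ _ inf_le_left
    (show finrank F (Submodule.span F (({u, w} : Finset (Fin k → F)) : Set (Fin k → F))) +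
      finrank F (Submodule.span F (({u, w} : Finset (Fin k → F)) : Set (Fin k → F))) < k by omega)
  exact ⟨z, hz, h u (Submodule.subset_span (by simp)), h w (Submodule.subset_span (by simp))⟩

theorem nonsing_three (hσ : ∀ a, B.σ a = a) (he : B.ε = 1) (h2 : (2 : F) ≠ 0) (hk : 5 ≤ k)
    {x x' y : Fin k → F} (hx : B.f x x = 0) (hx' : B.f x' x' = 0) (e : B.f x x' = 1)
    (h : B.f x y = 0) (h' : B.f y x' = 0) :
    ∃ z, B.f z z ≠ 0 ∧ B.f z x = 0 ∧ B.f z x' = 0 ∧ B.f z y = 0 := by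
  classical
  have h1 := finrank_span_le (F := F) ({x, x', y} : Finset (Fin k → F))
  have h3 : ({x, x', y} : Finset (Fin k → F)).card ≤ 3 := Finset.card_le_three
  have h4 := finrank_span_le (F := F) ({y} : Finset (Fin k → F))
  rw [Finset.card_singleton] at h4
  obtain ⟨z, hz, h5⟩ := exists_nonsing hσ he h2
    (Submodule.span F (({x, x', y} : Finset (Fin k → F)) : Set (Fin k → F)))
    (Submodule.span F (({y} : Finset (Fin k → F)) : Set (Fin k → F))) (by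
      rintro v ⟨hv, hv'⟩
      have a1 := hv' x (Submodule.subset_span (by simp))
      have a2 := hv' x' (Submodule.subset_span (by simp))
      simp only [Finset.coe_insert, Finset.coe_singleton, SetLike.mem_coe] at hv ⊢
      obtain ⟨a, b, c, rfl⟩ := Submodule.mem_span_triple.1 hv
      have a3 : B.f x' x = 1 := by rw [B.symm, e, he, hσ, one_mul]
      simp only [B.add_left, B.smul_left, hx, hx', e, h', a3, B.eq_zero_comm.1 h, mul_zero, mul_one,
        add_zero, zero_add] at a1 a2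
      rw [a1, a2]
      simpa using Submodule.smul_mem _ c (Submodule.mem_span_singleton_self y)) (by omega)
  exact ⟨z, hz, h5 x (Submodule.subset_span (by simp)), h5 x' (Submodule.subset_span (by simp)),
    h5 y (Submodule.subset_span (by simp))⟩

theorem exists_ker {a : Mk k F} (h0 : a ≠ 0) (h : a * a = 0) : ∃ v, v ≠ 0 ∧ a *ᵥ v = 0 := by
  by_contra! h1
  refine h0 (ext_mulVec fun v => ?_)
  by_contra h2
  exact h1 (a *ᵥ v) (by simpa using h2) (by rw [mulVec_mulVec, h, zero_mulVec])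

theorem notMem_symm (hy : y ≠ 0) (h : x ∉ F ∙ y) : y ∉ F ∙ x := fun h1 => by
  obtain ⟨a, rfl⟩ := Submodule.mem_span_singleton.1 h1
  have a0 : a ≠ 0 := by rintro rfl; simp at hy
  exact h (Submodule.mem_span_singleton.2 ⟨a⁻¹, by rw [smul_smul, inv_mul_cancel₀ a0, one_smul]⟩)

theorem k4 (H : BC B M) : 4 ≤ k := by rcases H.kind with h | h <;> omega

/-- Fact (b4) of the blueprint. -/
theorem b4 (H : BC B M) (hx : x ∈ IsoV B) (hy : y ∈ IsoV B) (h : B.f x y = 0) (hn : x ∉ F ∙ y) :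
    ∃ s ∈ Gam M, (s : Mk k F) *ᵥ y = y ∧ B.f x ((s : Mk k F) *ᵥ x) ≠ 0 := by
  obtain ⟨x', hx', e1, e2⟩ := H.gf2.opp x hx y hy h hn
  rcases H.kind with ⟨-, -, h1, -⟩ | ⟨he, h2, hk⟩
  · obtain ⟨s, hs, e⟩ := h1 x' 1
    refine ⟨s, hs, ?_, ?_⟩
    · simp [e, add_mulVec, rf_mulVec, e2]
    · simp [e, add_mulVec, rf_mulVec, e1, B.add_right, hx.2]
  · obtain ⟨z, z0, z1, z2, z3⟩ := nonsing_three H.sig he h2 hk hx.2 hx'.2 e1 h e2
    obtain ⟨c, s, hs, e⟩ := H.gf.eich x' z hx'.2 z2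
    have e3 : B.f x' x = 1 := by rw [B.symm, e1, he, H.sig, one_mul]
    have e4 : (s : Mk k F) *ᵥ x = x - z - c • x' := by
      simp [e, add_mulVec, sub_mulVec, smul_mulVec, rf_mulVec, e1, he, B.eq_zero_comm.1 z1]
    have e5 := B.mem_Iso.1 (H.gf.iso hs) x x
    refine ⟨s, hs, ?_, ?_⟩
    · simp [e, add_mulVec, sub_mulVec, smul_mulVec, rf_mulVec, e2, B.eq_zero_comm.1 z3]
    · simp only [e4, B.sub_left, B.sub_right, B.smul_left, B.smul_right, H.sig, hx.2, hx'.2, e1, e3,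
        z1, z2, B.eq_zero_comm.1 z1, B.eq_zero_comm.1 z2] at e5 ⊢
      intro h3
      exact z0 (by linear_combination e5 - 2 * h3)

/-- What is needed of a shape `ν` and of its conjugate by `s`. -/
structure Sh (B : Frm (Fin k) F) (Γ : Subgroup (GL (Fin k) F)) (ν : Mk k F) (s : GL (Fin k) F)
    (η : F) : Prop where
  mem : s ∈ Γ
  sq : ν * ν = 0
  tri : ν * cj s ν * ν ≠ 0
  adj : B.adj ν = η • ν
  ker : η = B.ε → ∃ v, v ≠ 0 ∧ ν *ᵥ v = 0 ∧ cj s ν *ᵥ v = 0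

theorem sh_N (H : BC B M) {ν : Mk k F} (h : ν ∈ RN B) : ∃ s η, Sh B (Gam M) ν s η := by
  classical
  obtain ⟨x, hx, rfl⟩ := h
  obtain ⟨x', hx', e⟩ := H.gf.hyp x hx
  obtain ⟨s, hs, e1⟩ := H.gf.tr x hx x' hx'
  have e2 : cj s (rf B x x) = rf B x' x' := by rw [cj_rf (H.gf.iso hs), e1]
  refine ⟨s, B.ε, hs, by rw [rf_mul_rf, hx.2, zero_smul], ?_, adj_rf B x x, fun _ => ?_⟩
  · rw [e2, rf_mul_rf, smul_mul_assoc, rf_mul_rf, e, one_smul, B.symm, e, H.sig, mul_one]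
    exact smul_ne_zero B.eps_ne_zero (rf_ne_zero hx.1 hx.1)
  · have h3 : ({x, x'} : Finset (Fin k → F)).card ≤ 2 := Finset.card_le_two
    have := k4 H
    obtain ⟨v, v0, hv⟩ := exists_perp B {x, x'} (by omega)
    exact ⟨v, v0, by rw [rf_mulVec, hv x (by simp), zero_smul],
      by rw [e2, rf_mulVec, hv x' (by simp), zero_smul]⟩

theorem sh_R (H : BC B M) {ν : Mk k F} (h : ν ∈ RM B) : ∃ s η, Sh B (Gam M) ν s η := by
  classical
  obtain ⟨x, hx, y, hy, h, hn, rfl⟩ := h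
  obtain ⟨s₁, hs₁, a1, a2⟩ := b4 H hx hy h hn
  have i1 := B.mem_Iso.1 (H.gf.iso hs₁)
  have hn' := notMem_symm hy.1 hn
  have hx1 : (s₁ : Mk k F) *ᵥ x ∈ IsoV B :=
    ⟨fun e => a2 (by rw [e, B.zero_right]), by rw [i1, hx.2]⟩
  have h1 : B.f y ((s₁ : Mk k F) *ᵥ x) = 0 := by
    rw [← B.eq_zero_comm.1 h, ← i1 y x, a1]
  obtain ⟨s₂, hs₂, b1, b2⟩ := b4 H hy hx1 h1 fun e => hn' (by
    obtain ⟨c, hc⟩ := Submodule.mem_span_singleton.1 e
    refine Submodule.mem_span_singleton.2 ⟨c, toLin'_inj s₁ ?_⟩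
    rw [toLin'_apply, toLin'_apply, mulVec_smul, hc, a1])
  have hs := (Gam M).mul_mem hs₂ hs₁
  generalize hx' : (s₁ : Mk k F) *ᵥ x = x' at *
  generalize hy' : (s₂ : Mk k F) *ᵥ y = y' at *
  have e2 : cj (s₂ * s₁) (rf B x y - rf B y x) = rf B x' y' - rf B y' x' := by
    rw [map_sub, cj_rf (H.gf.iso hs), cj_rf (H.gf.iso hs), Units.val_mul, ← mulVec_mulVec,
      ← mulVec_mulVec, hx', a1, b1, hy']
  have h' := B.eq_zero_comm.1 h
  refine ⟨s₂ * s₁, -B.ε, hs, ?_, ?_, ?_, fun he => ?_⟩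
  · simp only [mul_sub, sub_mul, rf_mul_rf, h, h', hx.2, hy.2, zero_smul, sub_self]
  · obtain ⟨v, v1, v2⟩ := exists_f_of_notMem (B := B) hn'
    obtain ⟨v', v3, v4⟩ := exists_f_of_notMem (B := B) hn
    replace v2 := v2 x (Submodule.mem_span_singleton_self x)
    replace v4 := v4 y (Submodule.mem_span_singleton_self y)
    have v5 : B.f v y = B.ε := by rw [B.symm, v1, H.sig, mul_one]
    intro h0
    have h3 := congrArg (fun a => B.f (a *ᵥ v) v') h0
    simp only [e2, ← mulVec_mulVec, sub_mulVec, rf_mulVec, B.sub_left, B.smul_left, v3, v4, v5,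
      B.eq_zero_comm.1 v2, B.eq_zero_comm.1 h1, zero_mulVec, B.zero_left] at h3
    exact mul_ne_zero B.eps_ne_zero (mul_ne_zero a2 fun e => b2 (B.eq_zero_comm.1 e))
      (by linear_combination -h3)
  · rw [B.adj_sub, adj_rf, adj_rf, neg_smul, smul_sub, neg_sub]
  · have h2 : (2 : F) = 0 := (mul_eq_zero.1 (by linear_combination -he : 2 * B.ε = 0)).resolve_right
      B.eps_ne_zero
    have hk : 6 ≤ k := by
      rcases H.kind with h3 | h3
      · exact h3.2.2.2.2 h2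
      · exact absurd h2 h3.2.1
    have h3 : ({x, y, x', y'} : Finset (Fin k → F)).card ≤ 4 := Finset.card_le_four
    obtain ⟨v, v0, hv⟩ := exists_perp B {x, y, x', y'} (by omega)
    exact ⟨v, v0, by simp [sub_mulVec, rf_mulVec, hv x, hv y],
      by simp [e2, sub_mulVec, rf_mulVec, hv x', hv y']⟩

/-! ### The groups `𝒦_u` -/

/-- The group `𝒦_u` of the blueprint. -/
def KK (B : Frm (Fin k) F) (M : Subgroup (GG k t F)) (i : Fin t) (w φ : Fin k → F)
    (hφ : φ ⬝ᵥ w = 1) (u : Fin k → F) : AddSubgroup (EE k t F) where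
  carrier := {κ | InC i κ ∧ ∃ m, InQ M i w (pp B w) m ∧
    ∀ v, B.f v w = 0 → phi i φ m v = B.f v u • κ}
  zero_mem' := ⟨InC.zero, 1, InQ.one, fun v _ => by simp [phi]⟩
  add_mem' := by
    rintro a b ⟨a1, m, a2, a3⟩ ⟨b1, m', b2, b3⟩
    exact ⟨a1.add b1, m * m', a2.mul b2, fun v hv => by
      rw [a2.phi_mul b2 hφ hv, a3 v hv, b3 v hv, smul_add]⟩
  neg_mem' := by
    rintro a ⟨a1, m, a2, a3⟩
    exact ⟨a1.neg, m⁻¹, a2.inv, fun v hv => by rw [a2.phi_inv hφ hv, a3 v hv, smul_neg]⟩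

variable {hφ : φ ⬝ᵥ w = 1} {κ κ' : EE k t F}

theorem cj_mem_KK {j : Fin t} (hj : j ≠ i) {s : GL (Fin k) F} (hs : s ∈ Gam M)
    (h : κ ∈ KK B M i w φ hφ u) : cj (emG j s) κ ∈ KK B M i w φ hφ u := by
  obtain ⟨a1, m, a2, a3⟩ := h
  have hc : InC i (emG j s : EE k t F) := InC.emG hj.symm s
  exact ⟨hc.cj a1, _, a2.conj_inC (mem_Gam.1 hs j) hc, fun v hv => by
    rw [InQ.phi_conj_inC hc, a3 v hv, map_smul]⟩

theorem cj_pure_mem {r : F} {p : Fin t → Mk k F} {s : Fin t → GL (Fin k) F} (I : Finset (Fin t))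
    (hi : i ∉ I) (hs : ∀ j ∈ I, s j ∈ Gam M) (h : r • pure p ∈ KK B M i w φ hφ u) :
    r • pure (fun j => if j ∈ I then cj (s j) (p j) else p j) ∈ KK B M i w φ hφ u := by
  induction I using Finset.induction_on with
  | empty => simpa using h
  | insert a I ha ih =>
    have h1 := cj_mem_KK (j := a) (by rintro rfl; simp at hi) (hs a (by simp))
      (ih (fun e => hi (by simp [e])) fun j hj => hs j (by simp [hj]))
    rw [map_smul, cj_emG_pure] at h1
    convert h1 using 3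
    funext j
    by_cases e : j = a
    · subst e; simp [ha]
    · simp [e]

theorem diff (G : GF B (Gam M)) (hφ : φ ⬝ᵥ w = 1) (h : InQ M i w (pp B w) m) {s : GL (Fin k) F}
    (hs : s ∈ Gam M) (hw : (s : Mk k F) *ᵥ w = w) : ∃ m', InQ M i w (pp B w) m' ∧
      ∀ v, B.f v w = 0 → phi i φ m' v = phi i φ m ((s : Mk k F) *ᵥ v - v) := by
  obtain ⟨h1, h2⟩ := h.conj_fix hs hw (mem_pp_iff_of_fix (G.iso hs) hw) hφ
  exact ⟨_, h1.mul h.inv, fun v hv => by
    rw [h1.phi_mul h.inv hφ hv, h2 v hv, h.phi_inv hφ hv, phi_sub, sub_eq_add_neg]⟩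

/-- Step (A): a fixed non-zero multiple of `Φ_m(u)` lies in `𝒦_u`. -/
theorem exists_smul_mem (H : BC B M) (hφ : φ ⬝ᵥ w = 1) (hu : B.f u u = 0) (h : B.f u w = 0) :
    ∃ c : F, c ≠ 0 ∧ ∀ m, InQ M i w (pp B w) m → c • phi i φ m u ∈ KK B M i w φ hφ u := by
  have h' := B.eq_zero_comm.1 h
  rcases H.kind with ⟨-, -, h1, -⟩ | ⟨he, h2, hk⟩
  · obtain ⟨s, hs, e⟩ := h1 u 1
    refine ⟨1, one_ne_zero, fun m hm => ?_⟩
    obtain ⟨m', a1, a2⟩ := diff H.gf hφ hm hs (by simp [e, add_mulVec, rf_mulVec, h'])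
    exact ⟨(phi_inC _ _ _ _).smul _, m', a1, fun v hv => by
      rw [a2 v hv, one_smul, ← phi_smul]; simp [e, add_mulVec, rf_mulVec]⟩
  · obtain ⟨z, z0, z1, z2⟩ := nonsing_two H.sig he h2 hk u w
    obtain ⟨c, s, hs, e⟩ := H.gf.eich u z hu z1
    have e1 : ∀ v, (s : Mk k F) *ᵥ v - v = (B.f v z - c * B.f v u) • u - B.f v u • z := fun v => by
      simp only [e, add_mulVec, sub_mulVec, smul_mulVec, rf_mulVec, one_mulVec, he]; module
    have e2 : (s : Mk k F) *ᵥ w = w := by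
      rw [← sub_eq_zero, e1, h', B.eq_zero_comm.1 z2]; simp
    refine ⟨-B.f z z, neg_ne_zero.2 z0, fun m hm => ?_⟩
    obtain ⟨m', a1, a2⟩ := diff H.gf hφ hm hs e2
    obtain ⟨m'', b1, b2⟩ := diff H.gf hφ a1 hs e2
    refine ⟨(phi_inC _ _ _ _).smul _, m'', b1, fun v hv => ?_⟩
    rw [b2 v hv, a2 _ (by rw [e1, B.sub_left, B.smul_left, B.smul_left, h, z2]; simp), ← phi_smul,
      ← phi_smul, e1 v, e1]
    congr 1
    simp only [B.sub_left, B.smul_left, hu, z1, B.eq_zero_comm.1 z1]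
    module

/-- Step (B). -/
theorem sc_comm (H : BC B M) (hQ : QQ M (RN B)) (hw : w ∈ IsoV B) (hu : u ∈ IsoV B)
    (h : B.f u w = 0) (hn : u ∉ F ∙ w) (h1 : κ ∈ KK B M i w φ hφ u) (h2 : κ' ∈ KK B M i w φ hφ u) :
    Sc ((B.pow t).adj κ - B.ε • κ) ∧
      Sc (κ' * (B.pow t).adj κ - B.ε • (κ * (B.pow t).adj κ')) := by
  obtain ⟨u', hu', e1, e2⟩ := H.gf2.opp u hu w hw h hn
  replace e2 := B.eq_zero_comm.1 e2
  have e3 : B.f u' u = B.ε := by rw [B.symm, e1, H.sig, mul_one]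
  obtain ⟨c, c0, hc⟩ := exists_smul_mem (i := i) H hφ hu'.2 e2
  obtain ⟨a1, m, a2, a3⟩ := h1
  obtain ⟨b1, m', b2, b3⟩ := h2
  obtain ⟨d1, m'', d2, d3⟩ := hc m' b2
  rw [b3 u' e2, e3] at d1 d3
  constructor
  · have h3 := hQ i _ ⟨w, hw, rfl⟩ _ (((phi_inC _ _ _ _).adj B).sub ((phi_inC _ _ _ _).smul _))
      (a2.comm_eich H.le H.gf hw.2 hφ e2)
    rw [a3 u' e2, e3, Frm.adj_smul, pow_sig, H.sig, ← smul_sub] at h3
    exact h3.of_smul B.eps_ne_zero
  · have h3 := hQ i _ ⟨w, hw, rfl⟩ _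
      (((d1.mul (a1.adj B)).smul _).sub ((a1.mul (d1.adj B)).smul _))
      (a2.comm_pure H.le d2 hφ h e2 a1 d1 a3 d3)
    refine Sc.of_smul c0 ?_
    convert h3 using 1
    simp only [e1, e3, H.sig, Frm.adj_smul, pow_sig, smul_mul_assoc, mul_smul_comm, smul_smul,
      smul_sub, one_mul]
    rw [mul_left_comm, B.eps_mul_eps, mul_one]

/-- Step (C): the elements of `𝒦_u` are scalars. -/
theorem sc_of_mem (hI : IsoP t (Gam M) ∅ (RN B ∪ RM B)) (H : BC B M) (hQ : QQ M (RN B))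
    (hw : w ∈ IsoV B) (hu : u ∈ IsoV B) (h : B.f u w = 0) (hn : u ∉ F ∙ w)
    (h1 : κ ∈ KK B M i w φ hφ u) : Sc κ := by
  by_contra hs
  have sh : ∀ ν ∈ RN B ∪ RM B, ∃ s η, Sh B (Gam M) ν s η := fun ν hν => hν.elim (sh_N H) (sh_R H)
  obtain ⟨J, p, r, ⟨j₁, hj₁⟩, hi, hp, hp', r0, hm⟩ := chain hI
    (fun e => by obtain ⟨s, η, h2⟩ := sh _ e; exact h2.tri (by simp)) i (KK B M i w φ hφ u)
    (fun j hj s hs X hX => cj_mem_KK hj hs hX) (by simp) (fun X hX => hX.1) h1 hs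
  have : ∀ j, ∃ s η, (j ∈ J → Sh B (Gam M) (p j) s η) ∧ (j ∉ J → η = 1) := fun j => by
    by_cases hj : j ∈ J
    · obtain ⟨s, η, h2⟩ := sh _ (hp j hj)
      exact ⟨s, η, fun _ => h2, fun e => absurd hj e⟩
    · exact ⟨1, 1, fun e => absurd e hj, fun _ => rfl⟩
  choose s η hS hη using this
  have hm' := cj_pure_mem J hi (fun j hj => (hS j hj).mem) hm
  rw [show (fun j => if j ∈ J then cj (s j) (p j) else p j) = fun j => cj (s j) (p j) from
    funext fun j => by split_ifs with hj; exacts [rfl, by rw [hp' j hj, map_one]]] at hm'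
  set q : Fin t → Mk k F := fun j => cj (s j) (p j) with hq
  haveI : Nonempty (Fin k) := by obtain ⟨a, -⟩ := Function.ne_iff.1 hw.1; exact ⟨a⟩
  have tri : ∀ j, p j * q j * p j ≠ 0 := fun j => by
    by_cases hj : j ∈ J
    · exact (hS j hj).tri
    · simp [hq, hp' j hj]
  have ap : ∀ j, B.adj (p j) = η j • p j := fun j => by
    by_cases hj : j ∈ J
    · exact (hS j hj).adj
    · simp [hη j hj, hp' j hj]
  have aq : ∀ j, B.adj (q j) = η j • q j := fun j => by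
    by_cases hj : j ∈ J
    · rw [hq, B.adj_cj (B.Iso_le_sim (H.gf.iso (hS j hj).mem)), ap, map_smul]
    · simp [hq, hη j hj, hp' j hj]
  have ad : ∀ p : Fin t → Mk k F, (∀ j, B.adj (p j) = η j • p j) →
      (B.pow t).adj (r • pure p) = (∏ j, η j) • r • pure p := fun p hp => by
    rw [Frm.adj_smul, pow_sig, H.sig, B.adj_pow_pure, funext hp, pure_smul, smul_comm]
  obtain ⟨s1, s2⟩ := sc_comm H hQ hw hu h hn hm hm'
  have sq : (r • pure p) * (r • pure p) = 0 := by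
    rw [pure_smul_mul, pure_eq_zero (i := j₁) (hS j₁ hj₁).sq, smul_zero]
  have ne : (r • pure p) * (r • pure q) * (r • pure p) ≠ 0 := by
    rw [pure_smul_mul, pure_smul_mul]
    exact smul_ne_zero (mul_ne_zero (mul_ne_zero r0 r0) r0) (pure_ne_zero tri)
  have he : ∏ j, η j = B.ε := by
    by_contra e
    rw [ad p ap, ← sub_smul] at s1
    exact ne (by rw [(s1.of_smul (sub_ne_zero.2 e)).eq_zero sq, mul_zero])
  rw [ad p ap, ad q aq, he, mul_smul_comm, mul_smul_comm B.ε, ← smul_sub] at s2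
  obtain ⟨μ, hμ⟩ := s2.of_smul B.eps_ne_zero
  obtain ⟨x, x0, ⟨j, x1⟩, j', x2⟩ : ∃ x : Fin t → Fin k → F, (∀ j, x j ≠ 0) ∧
      (∃ j, p j *ᵥ x j = 0) ∧ ∃ j, q j *ᵥ x j = 0 := by
    by_cases hJ : ∃ j ∈ J, j ≠ j₁
    · obtain ⟨j₂, hj₂, e⟩ := hJ
      obtain ⟨v₁, a1, a2⟩ := exists_ker (a := p j₁) (fun e => tri j₁ (by simp [e])) (hS j₁ hj₁).sq
      obtain ⟨v₂, b1, b2⟩ := exists_ker (a := q j₂) (fun e => tri j₂ (by simp [e]))
        (by rw [hq, ← map_mul, (hS j₂ hj₂).sq, map_zero])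
      refine ⟨Function.update (fun _ => v₂) j₁ v₁, fun j => ?_, ⟨j₁, by simpa⟩, j₂, by simpa [e]⟩
      by_cases e : j = j₁ <;> simp [e, a1, b1]
    · push Not at hJ
      rw [Finset.prod_eq_single j₁ (fun j _ hj => hη j fun e => hj (hJ j e)) (by simp)] at he
      obtain ⟨v, a1, a2, a3⟩ := (hS j₁ hj₁).ker he
      exact ⟨fun _ => v, fun _ => a1, ⟨j₁, a2⟩, j₁, a3⟩
  have kl : ∀ (p : Fin t → Mk k F) (j : Fin t), p j *ᵥ x j = 0 → (r • pure p) *ᵥ pv x = 0 :=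
    fun p j e => by
      rw [smul_mulVec, pure_pv, show pv (fun j => p j *ᵥ x j) = 0 from
        (pvM k t F).map_coord_zero j e, smul_zero]
  have h2 := congrArg (· *ᵥ pv x) hμ
  simp only [sub_mulVec, smul_mulVec B.ε, ← mulVec_mulVec, kl p j x1, kl q j' x2, mulVec_zero,
    smul_zero, sub_self, smul_mulVec μ, one_mulVec] at h2
  rw [(smul_eq_zero.1 h2.symm).resolve_right (pv_ne_zero x0), zero_smul] at hμ
  apply ne
  have h3 := congrArg ((r • pure p) * ·) hμ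
  simp only [mul_sub, mul_smul_comm B.ε, ← mul_assoc, sq, zero_mul, smul_zero, sub_zero,
    mul_zero] at h3
  exact h3

theorem jobBQL : JobBQL.{u} := by
  intro hI F _ _ k t B M H hQ i w hw
  obtain ⟨φ, hφ⟩ := exists_dot_one hw.1
  refine QL.of_inQ fun m hm => hm.inA_of_sc H.le H.gf hQ hw hφ fun v hv => ?_
  have h1 := H.gf2.pp w hw hv
  clear hv
  induction h1 using Submodule.span_induction with
  | mem u hu =>
    obtain ⟨c, c0, hc⟩ := exists_smul_mem (i := i) H hφ hu.1.2 hu.2.1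
    exact (sc_of_mem (hI F k t B M H) H hQ hw hu.1 hu.2.1 hu.2.2 (hc m hm)).of_smul c0
  | zero => rw [← zero_smul F (0 : Fin k → F), phi_smul, zero_smul]; exact Sc.zero
  | add a b _ _ ha hb => rw [phi_add]; exact ha.add hb
  | smul c a _ ha => rw [phi_smul]; exact ha.smul c

end H49.BQL
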